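import Cfsg.Agent.BN.TwG2
import Cfsg.Agent.BN.ReeBasic

/-!
# Two-generation of the small Ree groups
-/

set_option autoImplicit false

namespace CF.BN.Ree

variable {K : Type*} [Field K] {T : RT K} {G : Type*} [Group G] (D : ReeData T G) [Finite K]

theorem ReeData.u_mem_of (hq : 3 < Nat.card K) {Y : Subgroup G} (hH : ∀ t, D.h t ∈ Y)
    {a b c : K} (ha : a ≠ 0) (h : D.u a b c ∈ Y) (a' b' c' : K) : D.u a' b' c' ∈ Y := by
  have hc : ∀ (t : Kˣ) {a b c}, D.u a b c ∈ Y → D.u (T.χ₁ t * a) (T.χ₂ t * b) (t * c) ∈ Y :=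
    fun t a b c h => D.h_conj_u t a b c ▸ mul_mem (mul_mem (hH t) h) (inv_mem (hH t))
  have hZ : ∀ d, D.u 0 0 d ∈ Y := by
    intro d
    by_cases hd : d = 0
    · rw [hd, D.u_zero]; exact one_mem _
    have h3 := pow_mem h 3
    rw [D.u_cube] at h3
    have h0 : -(a ^ 2 * T.l a) ≠ 0 := neg_ne_zero.2 (mul_ne_zero (pow_ne_zero _ ha) (T.l_ne_zero ha))
    have := hc (Units.mk0 (d / -(a ^ 2 * T.l a)) (div_ne_zero hd h0)) h3
    rwa [mul_zero, mul_zero, Units.val_mk0, div_mul_cancel₀ _ h0] at this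
  have hz : ∀ {a b c} (c'), D.u a b c ∈ Y → D.u a b c' ∈ Y := fun {a b c} c' h => by
    have := mul_mem h (hZ (c' - c))
    rwa [D.u_mul_z, add_sub_cancel] at this
  have h1 : ∀ a', a' ≠ 0 → ∃ b', D.u a' b' 0 ∈ Y := fun a' ha' => by
    obtain ⟨t, ht⟩ := T.exists_χ₁ (div_ne_zero ha' ha)
    have := hc t h
    rw [ht, div_mul_cancel₀ _ ha] at this
    exact ⟨_, hz 0 this⟩
  have hM : ∀ d e, D.u 0 d e ∈ Y := by
    obtain ⟨s, hs1, hs2⟩ := exists_unit_ne (K := K) hq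
    obtain ⟨b1, hb1⟩ := h1 1 one_ne_zero
    obtain ⟨b2, hb2⟩ := h1 s s.ne_zero
    have h0 : T.l s - s ≠ 0 := fun h0 => by
      have := T.sq_eq_one_of_l_eq s.ne_zero (sub_eq_zero.1 h0)
      rcases sq_eq_one_iff.1 this with h | h
      exacts [hs1 (Units.ext h), hs2 (Units.ext (by simpa using h))]
    have hm := mul_mem (inv_mem (mul_mem hb1 hb2)) (mul_mem hb2 hb1)
    rw [D.u_mul, D.u_mul, D.u_inv, D.u_mul] at hm
    obtain ⟨e0, hm⟩ : ∃ e0, D.u 0 (T.l s - s) e0 ∈ Y := ⟨_, by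
      convert hm using 2
      · ring
      · simp only [map_add, map_one]; ring⟩
    intro d e
    by_cases hd : d = 0
    · rw [hd]; exact hZ e
    obtain ⟨r, hr⟩ := T.exists_sq (Units.mk0 (d / (T.l s - s)) (div_ne_zero hd h0))
    have h2 := hc (T.lu r * r) hm
    rw [T.χ₂_lu, mul_zero] at h2
    rcases hr with hr | hr
    · have hr' : (r : K) ^ 2 = d / (T.l s - s) := by simpa using congrArg Units.val hr.symm
      rw [hr', div_mul_cancel₀ _ h0] at h2
      exact hz e h2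
    · have hr' : (r : K) ^ 2 = -(d / (T.l s - s)) := by
        have := congrArg Units.val hr
        simp only [Units.val_mk0, Units.val_neg, Units.val_pow_eq_pow_val] at this
        rw [this, neg_neg]
      have h3 := inv_mem h2
      rw [D.u_inv, hr', neg_mul, div_mul_cancel₀ _ h0, neg_neg, zero_mul, sub_zero, neg_zero] at h3
      exact hz e h3
  by_cases ha' : a' = 0
  · rw [ha']; exact hM _ _
  obtain ⟨b1, hb1⟩ := h1 a' ha'
  have := mul_mem hb1 (hM (b' - b1) c')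
  rwa [D.u_mul_m, add_sub_cancel, zero_add] at this

include D in
theorem ReeData.two_gen (hq : 3 < Nat.card K) : ∃ a b : G, Subgroup.closure {a, b} = ⊤ := by
  obtain ⟨k, hk⟩ := IsCyclic.exists_generator (α := Kˣ)
  refine ⟨D.h k, D.u 1 0 0 * D.w, ?_⟩
  set Y := Subgroup.closure {D.h k, D.u 1 0 0 * D.w}
  have hH : ∀ t, D.h t ∈ Y := fun t => by
    obtain ⟨n, rfl⟩ := hk t
    simp only [map_zpow]
    exact zpow_mem (Subgroup.subset_closure (by simp)) _
  have hb : D.u 1 0 0 * D.w ∈ Y := Subgroup.subset_closure (by simp)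
  obtain ⟨s, hs1, -⟩ := exists_unit_ne (K := K) hq
  have h1 := mul_mem (mul_mem (mul_mem hb (hH s⁻¹)) (inv_mem hb)) (inv_mem (hH s))
  have h2 : D.u 1 0 0 * D.w * D.h s⁻¹ * (D.u 1 0 0 * D.w)⁻¹ * (D.h s)⁻¹ =
      D.u 1 0 0 * (D.h s * (D.u 1 0 0)⁻¹ * (D.h s)⁻¹) := by
    rw [mul_assoc (D.u 1 0 0), D.w_mul_h, inv_inv]; group
  rw [h2, D.u_inv, D.h_conj_u, D.u_mul] at h1
  have hU := D.u_mem_of hq hH (fun h => hs1 (T.χ₁_eq_one.1 (by linear_combination -h))) h1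
  refine D.gen Y hU ?_
  have := mul_mem (inv_mem (hU 1 0 0)) hb
  rwa [inv_mul_cancel_left] at this

end CF.BN.Ree
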