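import Cfsg.Agent.BN.G2b
import Cfsg.Agent.BN.TwE6
import Cfsg.Agent.Chev.K2

/-!
# Two-generation of `²E₆(q)`
-/

set_option autoImplicit false

namespace CF.BN.TG

open CF.Chev Cfsg.Lie

variable {K : Type*} [Field K] {G : Type*} [Group G] {ρ : StRep cE6 K G} {T : Tw ρ}
  {φ : K →+* K} {q : ℕ}

theorem swE (O : List (Fin 72)) {r s : Fin 72}
    (h : O.idxOf r < O.idxOf s ∧ s ≠ r ∧ s ≠ cE6.neg r ∧ chevE6.commTerms r s = []) (t u : K)
    (g : G) : ρ.x s u * (ρ.x r t * g) = ρ.x r t * id (ρ.x s u * g) :=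
  swap linkE6 ρ.toPreSt O h t u g

theorem swE₁ (r s v : Fin 72) (c : ℤ)
    (h : s ≠ r ∧ s ≠ cE6.neg r ∧ chevE6.commTerms r s = [(v.1, c, 1, 1)]) (t u : K) (g : G) :
    ρ.x s u * (ρ.x r t * g) = ρ.x r t * (ρ.x s u * (ρ.x v (-(c * t * u)) * g)) :=
  swap₁ linkE6 ρ.toPreSt r s v c h t u g

theorem wpE (l : List (Fin 6)) (r s : Fin 72)
    (h : l.foldr (fun (i : Fin 6) (s : ℕ) => chevE6.reflectRoot i s) r = s) : cE6.wp l r = s :=
  wp_apply_eq linkE6 h

theorem hasE {Y : Subgroup G} (hY : Y ≤ T.Fix) {n : G} (hn : n ∈ Y)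
    (hw : ρ.NW n (cE6.wp [0, 5, 2, 4, 3, 1])) (j : ℕ) {S : List (Fin 72)} (hL : Has T Y S)
    (S' : List (Fin 72)) (h : ∀ r ∈ S', ∃ s ∈ S,
      (List.replicate j ([0, 5, 2, 4, 3, 1] : List (Fin 6))).flatten.foldr
        (fun (i : Fin 6) (s : ℕ) => chevE6.reflectRoot i s) s = r) : Has T Y S' :=
  Has.pow linkE6 hY hn hw j h hL

/-- The short root elements of `²E₆`. -/
def xE (ρ : StRep cE6 K G) (φ : K →+* K) (t : K) : G := ρ.x 56 t * ρ.x 36 (φ t)

theorem xE_add (t u : K) : xE ρ φ (t + u) = xE ρ φ t * xE ρ φ u := by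
  refine mul_right_cancel (b := 1) ?_
  simp (disch := decide +kernel) only [xE, map_add, mul_assoc, x_x, id_eq, swE [56, 36]]

theorem commE (a b d e : K) : (ρ.x 43 d * ρ.x 40 e) * (ρ.x 29 a * ρ.x 34 b) =
    (ρ.x 29 a * ρ.x 34 b) * (ρ.x 43 d * ρ.x 40 e) * ρ.x 39 (a * d - b * e) := by
  refine mul_right_cancel (b := 1) ?_
  simp (disch := decide +kernel) only [mul_assoc, x_x, id_eq, swE [29, 34, 43, 40, 39],
    swE₁ 29 43 39 (-1) (by decide +kernel), swE₁ 34 40 39 1 (by decide +kernel)]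
  congr 6; push_cast; ring

variable (h : T.IsGr pE6 φ)
include h

theorem xE_conj {g : G} (hg : g ∈ T.Fix) {χ : Char (Fin 6) K} (hχ : ρ.ActsT g χ) (t : K) :
    g * xE ρ φ t * g⁻¹ = xE ρ φ (χ.ev (cE6.vec 56) * t) := by
  have e1 := T.ev_π hg hχ 56
  rw [(h.spec (r := 56) (s := 36) (by decide +kernel)).1] at e1
  simp only [xE, ← conj_mul, hχ _, e1, Tw.φu, h.φ_eq, map_mul, Units.coe_map, MonoidHom.coe_coe]

variable (hφ : ∀ t, φ t = t ^ q) (h2 : ∀ t, φ (φ t) = t)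
include hφ h2

theorem two_genE6 [Finite K] {k : Kˣ} (hk : ∀ u, u ∈ Subgroup.zpowers k)
    (hk1 : φ k ≠ k) (hk2 : (k : K) ^ 2 ≠ 1) :
    ∃ a b : gE6 ρ q, Subgroup.closure ({a, b} : Set (gE6 ρ q)) = ⊤ := by
  have F := formE6 h hφ h2
  have D := dataE6 h.p_eq
  have hr := ρ.r3_of_finite
  let ψ := Units.map (φ : K →* K)
  have hh := tor_memE6 hφ hr (c := ![k, 1, 1, 1, 1, ψ k]) fun i => by
    fin_cases i
    exacts [rfl, (map_one _).symm, (map_one _).symm, (map_one _).symm, (map_one _).symm,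
      Units.ext (h2 _).symm]
  have hχ := hr.actsT_tor ![k, 1, 1, 1, 1, ψ k]
  have hH : hr.tor ![k, 1, 1, 1, 1, ψ k] ∈ ρ.H := hr.range_tor.le ⟨_, rfl⟩
  generalize hr.tor _ = a at hh hχ hH
  obtain ⟨n0, hn0, hw0⟩ := F.exists_n_s 0
  obtain ⟨n2, hn2, hw2⟩ := F.exists_n_s 2
  obtain ⟨n3, hn3, hw3⟩ := F.exists_n_s 3
  obtain ⟨n1, hn1, hw1⟩ := F.exists_n_s 1
  have hw := hw0.mul (hw2.mul (hw3.mul hw1))
  rw [D.s_eq, D.s_eq, D.s_eq, D.s_eq, ← cE6.wp_append, ← cE6.wp_append, ← cE6.wp_append] at hw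
  rw [D.s_eq] at hw3
  have hn := mul_mem hn0 (mul_mem hn2 (mul_mem hn3 hn1))
  generalize n0 * (n2 * (n3 * n1)) = n at hn hw
  have hx : ∀ t, xE ρ φ t ∈ gE6 ρ q := mem_gE6₂ (by decide) hφ
  refine two_gen_of hh (mul_mem (hx 1) hn) (gE6_le_Gen h hφ h2) ?_
  have hY : Subgroup.closure {a, xE ρ φ 1 * n} ≤ T.Fix := ((Subgroup.closure_le _).2 (by
    rintro _ (rfl | rfl); exacts [hh, mul_mem (hx 1) hn])).trans F.fix
  have ha : a ∈ Subgroup.closure {a, xE ρ φ 1 * n} := Subgroup.subset_closure (by simp)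
  have hb : xE ρ φ 1 * n ∈ Subgroup.closure {a, xE ρ φ 1 * n} := Subgroup.subset_closure (by simp)
  generalize Subgroup.closure {a, xE ρ φ 1 * n} = Y at hY ha hb
  obtain ⟨χ', h1, h3⟩ := exists_actsT_conj T.faith hw.acts hH hχ
  have e : ∀ i, cE6.sp i (cE6.vec 56) = ![2, 0, -1, 0, 0, 0] i ∧
      cE6.sp i (cE6.vec 10) = ![-1, -1, 0, 0, 1, 0] i := by decide +kernel
  have hk0 := k.ne_zero
  have hX : ∀ t, xE ρ φ t ∈ Y := by
    refine stein (xE ρ φ) xE_add hk hk2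
      (κ := χ'.ev (cE6.vec 56)) ?_ (hr.commute_H hH (hw.acts.conj_mem_H hH)) (fun t => ?_)
      (xE_conj h (F.fix (mul_mem (mul_mem hn hh) (inv_mem hn))) h1) ha ?_
    · have := h3 10
      rw [wpE (swE6 0 ++ (swE6 2 ++ (swE6 3 ++ swE6 1))) 10 56 (by decide +kernel)] at this
      rw [this, cE6.torChar_ev]
      simp only [e, Fin.prod_univ_six]
      intro e1
      have e2 : (k : K) = 1 := by simpa using e1
      exact hk1 (by rw [e2, map_one])
    · rw [xE_conj h (F.fix hh) hχ, cE6.torChar_ev]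
      simp [e, Fin.prod_univ_six, zpow_ofNat]
    · convert mul_mem (mul_mem hb ha) (inv_mem hb) using 1; group
  replace hn : n ∈ Y := (mul_mem_cancel_left (hX 1)).1 hb
  have hS : Has T Y [56, 36] := fun g hg => by
    obtain ⟨t, rfl⟩ := (memE6₂ h h2 (i := 0) (r := 56) (s := 36) (by decide) rfl).1 hg
    exact hX t
  have hS' := hasE hY hn hw 7 hS [29, 34] (by decide +kernel)
  have hS'' := hasE hY hn hw 4 hS [43, 40] (by decide +kernel)
  have hL : Has T Y [39] := by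
    obtain ⟨d, hd⟩ := hw3.acts.exists_conj_x 42
    obtain ⟨e, he⟩ := hw3.acts.exists_conj_x 37
    rw [wpE (swE6 3) 42 43 (by decide +kernel)] at hd
    rw [wpE (swE6 3) 37 40 (by decide +kernel)] at he
    have hb : ρ.x 43 d * ρ.x 40 e ∈ Y := hS'' (im (mul_mem (ρ.x_mem_U (by decide) _)
      (ρ.x_mem_U (by decide) _)) (by
        have := F.fix (mul_mem (mul_mem hn3 (mem_gE6₂ (r := 42) (s := 37) (by decide) hφ 1))
          (inv_mem hn3))
        simpa only [← conj_mul, hd, he, map_one, mul_one] using this))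
    have key : ∀ t, ρ.x 39 (t * d - φ t * e) ∈ Y := fun t => by
      have ha : ρ.x 29 t * ρ.x 34 (φ t) ∈ Y :=
        hS' (im (mul_mem (ρ.x_mem_U (by decide) _) (ρ.x_mem_U (by decide) _))
          (F.fix (mem_gE6₂ (by decide) hφ t)))
      have := mul_mem hb ha
      rwa [commE, mul_mem_cancel_left (mul_mem ha hb)] at this
    obtain ⟨s, hs⟩ : ∃ s, s * d - φ s * e ≠ 0 := by
      by_contra! h0
      have : d * (k - φ k) = 0 := by
        have a0 := h0 1
        have a1 := h0 k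
        simp only [map_one] at a0
        linear_combination a1 - φ k * a0
      simp [sub_eq_zero, hk1.symm] at this
    intro g hg
    obtain ⟨t, rfl⟩ := (memE6₁ h (i := 3) (r := 39) (by decide) rfl).1 hg
    have h5 := (fixE6₁ h (by decide)).1 (hY (key s))
    generalize hv : s * d - φ s * e = v at hs h5
    have h6 : φ (t / v) = t / v := by rw [map_div₀, h5, t.2]
    have := key (t / v * s)
    rwa [map_mul, h6, show t / v * s * d - t / v * φ s * e =
      t / v * v by rw [← hv]; ring, div_mul_cancel₀ _ hs] at this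
  refine form_of_has D F hY (fun i => ?_) fun i => ?_ <;> fin_cases i
  exacts [hS, hasE hY hn hw 1 hL _ (by decide +kernel), hasE hY hn hw 1 hS _ (by decide +kernel),
    hL, hasE hY hn hw 1 hS _ (by decide +kernel), hS,
    hasE hY hn hw 6 hS _ (by decide +kernel), hasE hY hn hw 7 hL _ (by decide +kernel),
    hasE hY hn hw 7 hS _ (by decide +kernel), hasE hY hn hw 6 hL _ (by decide +kernel),
    hasE hY hn hw 7 hS _ (by decide +kernel), hasE hY hn hw 6 hS _ (by decide +kernel)]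

omit h hφ h2

theorem two_gen_E6 [Fintype K] (hq : IsPrimePow q) (hK : Fintype.card K = q ^ 2) :
    ∃ a b : twistedE6 K q, Subgroup.closure ({a, b} : Set (twistedE6 K q)) = ⊤ := by
  obtain ⟨φ, hφ, h2⟩ := exists_frobE6 hq hK
  obtain ⟨k, hk⟩ := IsCyclic.exists_generator (α := Kˣ)
  have h1 := orderOf_eq_card_of_forall_mem_zpowers hk
  rw [Nat.card_units, Nat.card_eq_fintype_card, hK] at h1
  obtain ⟨m, rfl⟩ : ∃ m, q = m + 2 := ⟨q - 2, by have := hq.two_le; omega⟩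
  have h3 : m + 4 ≤ (m + 2) ^ 2 := by nlinarith [Nat.zero_le (m ^ 2)]
  refine two_gen_equiv (packE6 hφ h2).e (two_genE6 (isGr_twE6 φ) hφ h2 hk (fun e => ?_) fun e => ?_)
  · have h2 : k ^ (m + 1) = 1 := Units.ext (mul_right_cancel₀ k.ne_zero (by
      rw [hφ] at e
      rw [Units.val_one, one_mul, Units.val_pow_eq_pow_val, ← pow_succ, e]))
    have h4 := Nat.le_of_dvd (by omega) (orderOf_dvd_of_pow_eq_one h2)
    omega
  · have h4 := Nat.le_of_dvd (by omega) (orderOf_dvd_of_pow_eq_one (x := k) (Units.ext e))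
    omega

end CF.BN.TG
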