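import Cfsg.Agent.BN.ReeTori
import Cfsg.Agent.BN.TLift

/-!
# The Schur multiplier of a small Ree group
-/

set_option autoImplicit false

namespace CF.BN.Ree

open Subgroup CF.Schur CF.Chev Cfsg
open scoped commutatorElement

variable {K : Type*} [Field K] {T : RT K}

theorem RT.χ₁_inv (T : RT K) (t : Kˣ) : T.χ₁ t⁻¹ = (T.χ₁ t)⁻¹ := by simp [RT.χ₁, mul_comm]

theorem RT.χ₂_inv (T : RT K) (t : Kˣ) : T.χ₂ t⁻¹ = (T.χ₂ t)⁻¹ := by simp [RT.χ₂, mul_comm]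

theorem RT.nf [Finite K] (T : RT K) (hq : 3 < Nat.card K) (i j : Fin 3) :
    NF (![T.χ₁, T.χ₂, Units.val] i) (![T.χ₁, T.χ₂, Units.val] j) := by
  obtain ⟨s, h1, h2⟩ := exists_unit_ne hq
  have h0 := s.ne_zero
  have h3 : (s : K) - 1 ≠ 0 := sub_ne_zero.2 fun e => h1 (Units.ext e)
  have h4 : (s : K) + 1 ≠ 0 := fun e => h2 (Units.ext (eq_neg_of_add_eq_zero_left e))
  have h5 : (s : K) ^ 2 - s + 1 ≠ 0 := fun e =>
    pow_ne_zero 2 h4 (by linear_combination e + s * T.three)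
  have h6 : ∀ a : K, a ^ 2 + 1 ≠ 0 := fun a e =>
    T.not_isSquare_neg_one ⟨a, by linear_combination -e⟩
  have h7 : (1 : K) - s ≠ 0 := fun e => h3 (by linear_combination -e)
  have hj : ((-1 : Kˣ) : K) ≠ 1 := fun e => T.neg_one_ne_one (Units.ext e)
  have k11 : NF T.χ₁ T.χ₁ := by
    obtain ⟨a, ha⟩ := T.exists_χ₁ h0
    obtain ⟨b, hb⟩ := T.exists_χ₁ h7
    exact .self T.χ₁_inv (i := a) (j := b) (k := 1) (T.χ₁_ne_zero _) (T.χ₁_ne_zero _)
      (by rw [ha, hb]; ring) (T.χ₁_eq_one.2 rfl) (ha ▸ h5)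
  have k33 : NF (Units.val : Kˣ → K) Units.val :=
    .self Units.val_inv_eq_inv_val (i := s) (j := .mk0 _ h7) (k := 1) h0 h7 (by simp) rfl h5
  have k12 : NF T.χ₁ T.χ₂ := .of_sep (i := -1) (iff_of_false
    (by rw [T.χ₁_neg_one]; exact hj) (by simp [T.χ₂_neg_one]))
  have k32 : NF Units.val T.χ₂ := .of_sep (i := -1) (iff_of_false hj (by simp [T.χ₂_neg_one]))
  have k22 : NF T.χ₂ T.χ₂ := by
    have h : ∀ a : K, a ≠ 0 → (a ^ 2, (a ^ 2)⁻¹) ∈
        Subring.closure (Set.range fun i => (T.χ₂ i, T.χ₂ i⁻¹)) := fun a ha =>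
      Subring.subset_closure ⟨T.lu (.mk0 a ha) * .mk0 a ha, by simp only [T.χ₂_inv, T.χ₂_lu]; rfl⟩
    refine ⟨_, add_mem (add_mem (h _ h4) (h _ h3)) (add_mem (h _ h0) (one_mem _)), iff_of_true ?_
      fun e => mul_ne_zero (h6 s) (h6 (s ^ 2)) ?_⟩
    · simp only [Prod.fst_add, Prod.fst_one]
      linear_combination (s ^ 2 + 1) * T.three
    · simp only [Prod.snd_add, Prod.snd_one] at e
      field_simp at e
      linear_combination e
  have k13 : NF T.χ₁ Units.val := .of_add (i := s⁻¹) (j := 1) (k := (Units.mk0 _ h4)⁻¹)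
    (iff_of_false (fun e => h5 ?_) (by simp))
  · fin_cases i <;> fin_cases j
    exacts [k11, k12, k13, k12.symm, k22, k32.symm, k13.symm, k32, k33]
  have h8 := T.l_ne_zero h0
  have h9 := T.l_ne_zero h4
  simp only [T.χ₁_inv, T.χ₁_eq_one.2 rfl] at e
  simp only [RT.χ₁, Units.val_mk0, map_add, map_one, mul_inv, inv_inv] at e
  field_simp at e
  have h10 : T.l (T.l s) = T.l s := mul_left_cancel₀ h3 (by
    rw [T.l_l]
    linear_combination e - (T.l s * s + s ^ 3) * T.three)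
  have := T.sq_eq_one_of_l_eq h0 (T.l.injective h10)
  exact absurd (show ((s : K) - 1) * (s + 1) = 0 by linear_combination this) (mul_ne_zero h3 h4)

variable {G : Type*} [Group G] (D : ReeData T G)

namespace ReeData

/-- The coordinates of an element of `U`. -/
noncomputable def crd (g : G) : K × K × K :=
  Function.invFun (fun p : K × K × K => D.u p.1 p.2.1 p.2.2) g

theorem crd_u (a b c : K) : D.crd (D.u a b c) = (a, b, c) :=
  Function.leftInverse_invFun (f := fun p : K × K × K => D.u p.1 p.2.1 p.2.2)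
    (fun _ _ h => by simpa [Prod.ext_iff] using D.u_inj.1 h) (a, b, c)

theorem chain : Chain D.U D.h ![T.χ₁, T.χ₂, Units.val] (fun _ => Set.univ) D.U := by
  have hr : ∀ {A A' : Subgroup G}, ∀ a ∈ A, ∃ x ∈ Set.univ, x ∈ A ∧ x⁻¹ * a ∈ A' :=
    fun a ha => ⟨a, trivial, ha, by simp⟩
  refine .step 0 (A' := D.U₁) ⟨D.U₁_le_U, le_rfl, ?_, ⟨fun g => (D.crd g).1, ?_, ?_, ?_⟩, hr⟩
    (.step 1 (A' := D.Z) ⟨?_, D.U₁_le_U, ?_, ⟨fun g => (D.crd g).2.1, ?_, ?_, ?_⟩, hr⟩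
    (.step 2 ⟨bot_le, D.Z_le_U, fun a ha u hu => (D.commute_of_mem_Z ha hu).commutator_eq,
      ⟨fun g => (D.crd g).2.2, ?_, ?_, ?_⟩, hr⟩ .bot))
  · rintro _ ⟨a, b, c, rfl⟩ _ ⟨d, e, f, rfl⟩
    simp [commutatorElement_def, u_inv, D.u_mul, u_mem_U₁_iff]
  · rintro _ ⟨a, b, c, rfl⟩ _ ⟨d, e, f, rfl⟩
    simp [D.u_mul, crd_u]
  · rintro _ ⟨a, b, c, rfl⟩
    simp [crd_u, u_mem_U₁_iff]
  · rintro t _ ⟨a, b, c, rfl⟩
    simp [h_conj_u, crd_u, u_mem_U]
  · rintro _ ⟨c, rfl⟩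
    exact ⟨0, c, rfl⟩
  · rintro _ ⟨b, c, rfl⟩ _ ⟨d, e, f, rfl⟩
    simp [commutatorElement_def, u_inv, D.u_mul, u_mem_Z_iff, ← add_sub_assoc]
  · rintro _ ⟨b, c, rfl⟩ _ ⟨e, f, rfl⟩
    simp [u_mul_m, crd_u]
  · rintro _ ⟨b, c, rfl⟩
    simp [crd_u, u_mem_Z_iff]
  · rintro t _ ⟨b, c, rfl⟩
    simp [h_conj_u, crd_u, u_mem_U₁_iff]
  · rintro _ ⟨c, rfl⟩ _ ⟨f, rfl⟩
    simp [u_mul_z, crd_u]
  · rintro _ ⟨c, rfl⟩
    simp [crd_u, u_eq_one]
  · rintro t _ ⟨c, rfl⟩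
    simp [h_conj_u, crd_u, u_mem_Z_iff]

variable [Finite K]

theorem lc_invol (D : ReeData T G) (hq : 3 < Nat.card K) {E : Type*} [Group E] {π : E →* G} (hπ : CExt π) {x y : G}
    (hx : x * x = 1) (h : Commute x y) : LC π x y := by
  by_cases h1 : x = 1
  · exact h1 ▸ LC.one hπ y
  obtain ⟨g, rfl⟩ := D.exists_conj_j (orderOf_eq_prime (by rwa [sq]) h1)
  generalize D.conj g = D at h
  obtain ⟨s, h2, h3⟩ := exists_unit_ne hq
  have hL : D.L ≤ lcSub hπ D.j := by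
    rintro _ ⟨g, rfl⟩
    obtain ⟨g, rfl⟩ := QuotientGroup.mk_surjective g
    have : commutator _ ≤ (lcSub hπ D.j).comap D.φ := commutator_le.2 fun a _ b _ => by
      rw [mem_comap, map_commutatorElement]
      exact LC.commutator hπ (D.commute_j (D.φ_mem_L a)).symm (D.commute_j (D.φ_mem_L b)).symm
    rw [Matrix.SL2.commutator_eq_top s.ne_zero fun e =>
      (sq_eq_one_iff.1 e).elim (Units.ext_iff.not.1 h2) (Units.ext_iff.not.1 h3)] at this
    exact this (mem_top g)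
  rcases D.commute_j_iff.1 h with h | h
  · exact LC.symm (hL h)
  · exact LC.symm ((mul_mem_cancel_left (show D.j ∈ lcSub hπ D.j from LC.self hπ _)).1 (hL h))

theorem trivial_schur (D : ReeData T G) (hq : 3 < Nat.card K) : HasCyclicSchurMultiplier G 1 := by
  have := D.finite
  refine trivial_of_stem_prime fun p hp Γ _ _ σ hσ hc => ?_
  have := Fact.mk hp
  have hπ := stem_cext hσ
  obtain ⟨P⟩ : Nonempty (Sylow p G) := inferInstance
  have key : ∀ P : Subgroup G, ¬ p ∣ P.index → ⁅P.comap σ, P.comap σ⁆ ⊓ σ.ker ≠ ⊥ := fun P h =>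
    stem_not_split hσ hp hc _ (by rwa [map_comap_eq_self_of_surjective hσ.1])
  obtain rfl | rfl | h3 : p = 2 ∨ p = 3 ∨ 3 < p := by have := hp.two_le; omega
  · refine key P P.not_dvd_index (eq_bot_iff.2 (inf_le_left.trans (commutator_le.2 fun x hx y hy =>
      (D.lc_invol hq hπ (D.mul_self_of_isPGroup P.isPGroup' hx) (D.commute_sylow_two P hx hy)
        x y rfl rfl).commutator_eq)))
  · obtain ⟨s, h1, h2⟩ := exists_unit_ne hq
    refine key D.U D.not_dvd_index_U (eq_bot_iff.2 fun z hz => D.chain.eq_one hσ.2.1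
      (fun g _ => hσ.1 g) (fun _ => hσ.1 _) (fun l => ⟨s, ?_⟩) (fun l l' => .inl (T.nf hq l l'))
      hz.1 hz.2)
    fin_cases l <;> simp [T.χ₁_eq_one, T.χ₂_eq_one, h1, h2]
  · exact key P P.not_dvd_index (by
      rw [hπ.commutator_comap_eq_bot (D.isCyclic_of_isPGroup hq hp h3 P.isPGroup'), bot_inf_eq])

end ReeData

end CF.BN.Ree
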