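import Cfsg.Agent.Chev.Syl

/-!
# The exponent of a maximal unipotent subgroup
-/

set_option autoImplicit false

namespace CF.BN

open CF.Chev

variable {B ι : Type} [Fintype B] [DecidableEq B] [Fintype ι] [DecidableEq ι]
  {C : ChevBasis B ι} {K : Type*} [Field K] {G : Type*} [Group G] {ρ : StRep C K G}
  {p : ℕ} [Fact p.Prime] [CharP K p]

theorem pow_eq_one_of_mem_Up [Nonempty B] (hρ : ρ.Faithful) {h k : ℕ}
    (hh : ∀ r, RootSys.ht (C.vec r) ≤ h) (hk : 2 * h < p ^ k) {u : G} (hu : u ∈ ρ.Up) :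
    u ^ p ^ k = 1 := by
  obtain ⟨f, hf⟩ := hρ
  refine hf.eq_one_of_mem_U C.closed_pos C.isNil_pos (pow_mem hu _) ?_
  have h1 := RootSys.pow_mem_Fil (RootSys.mem_Uni.1
    (C.adPre_U_le_Uni (φ := RootSys.ht) (fun r hr => hr.ht_pos) (hf.mem_U hu))) (p ^ k)
  rw [sub_pow_char_pow_of_commute _ _ (Commute.one_right _), one_pow, RootSys.mem_Fil] at h1
  have h2 : ∀ a, |RootSys.ht (C.wt a)| ≤ h := by
    rintro (i | r)
    · simp
    · have := hh (C.neg r)
      rw [C.vec_neg, map_neg] at this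
      exact abs_le.2 ⟨by simpa [neg_le] using this, hh r⟩
  rw [map_pow]
  refine Units.ext (sub_eq_zero.1 ?_)
  ext a b
  refine h1 a b ?_
  have := abs_le.1 (h2 a)
  have := abs_le.1 (h2 b)
  omega

theorem pow_eq_one_of_pow_eq_one [Nonempty B] [Finite K] (h3 : ρ.R3) (hρ : ρ.Faithful)
    (hG : ρ.Gp = ⊤) {h k : ℕ} (hh : ∀ r, RootSys.ht (C.vec r) ≤ h) (hk : 2 * h < p ^ k) {x : G}
    {j : ℕ} (hx : x ^ p ^ j = 1) : x ^ p ^ k = 1 := by
  obtain ⟨g, hg⟩ := h3.exists_conj_le_Up hρ hG (p := p) (Q := Subgroup.zpowers x) (by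
    refine IsPGroup.of_card_dvd_pow (n := j) ?_
    rw [Nat.card_zpowers]
    exact orderOf_dvd_of_pow_eq_one hx)
  simpa using pow_eq_one_of_mem_Up hρ hh hk (hg x (Subgroup.mem_zpowers x))

end CF.BN
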